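import Mathlib
import Cfsg.Prelude.Def_Sz

/-! Involutions of `Sp₄` in characteristic two; averaging of quadratic forms; generators of `SL₂`. -/

set_option autoImplicit false

namespace Cfsg.Agent.SzL

open Matrix Module Cfsg.Lie
open scoped MatrixGroups

variable {F : Type*} [Field F]

abbrev V4 (F : Type*) := Fin 4 → F
abbrev M4 (F : Type*) := Matrix (Fin 4) (Fin 4) F

/-- the form as a bilinear map -/
def Bf : V4 F →ₗ[F] V4 F →ₗ[F] F :=
  LinearMap.mk₂ F altForm4 (fun _ _ _ => by simp [altForm4]; ring) (fun _ _ _ => by simp [altForm4]; ring)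
    (fun _ _ _ => by simp [altForm4]; ring) (fun _ _ _ => by simp [altForm4]; ring)

theorem Bf_apply (u v : V4 F) : Bf u v = u 0 * v 3 + u 1 * v 2 + u 2 * v 1 + u 3 * v 0 := rfl

theorem sym (u v : V4 F) : Bf u v = Bf v u := by rw [Bf_apply, Bf_apply]; ring

theorem ext_B {u v : V4 F} (h : ∀ y, Bf y u = Bf y v) : u = v := by
  have h0 := h (Pi.single 0 1)
  have h1 := h (Pi.single 1 1)
  have h2 := h (Pi.single 2 1)
  have h3 := h (Pi.single 3 1)
  simp [Bf_apply] at h0 h1 h2 h3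
  ext i; fin_cases i <;> assumption

theorem exists_one {a : V4 F} (ha : a ≠ 0) : ∃ z, Bf z a = 1 := by
  by_contra! H
  refine ha (ext_B fun y => ?_)
  by_contra h
  rw [map_zero] at h
  exact H ((Bf y a)⁻¹ • y) (by simp [h])

variable [CharP F 2]

theorem two0 : (2 : F) = 0 := CharTwo.two_eq_zero

theorem slf (v : V4 F) : Bf v v = 0 := by
  rw [Bf_apply]; linear_combination (v 0 * v 3 + v 1 * v 2) * (two0 (F := F))

theorem vv (v : V4 F) : v + v = 0 := by ext i; simp [CharTwo.add_self_eq_zero]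

theorem sq_inj {x y : F} (h : x ^ 2 = y ^ 2) : x = y := by
  have : (x - y) ^ 2 = 0 := by linear_combination h + (y ^ 2 - x * y) * (two0 (F := F))
  exact sub_eq_zero.mp (pow_eq_zero_iff two_ne_zero |>.mp this)

theorem exists_sq [Finite F] (c : F) : ∃ d : F, d ^ 2 = c := by
  obtain ⟨d, hd⟩ := FiniteField.isSquare_of_char_two (ringChar.eq F 2) c
  exact ⟨d, by rw [hd, sq]⟩

/-- `N` is self-adjoint -/
def SA (N : M4 F) : Prop := ∀ u v, Bf u (N *ᵥ v) = Bf (N *ᵥ u) v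

theorem SA.exists_a [Finite F] {N : M4 F} (h : SA N) : ∃ a, ∀ v, Bf v (N *ᵥ v) = Bf v a ^ 2 := by
  choose s hs using exists_sq (F := F)
  refine ⟨![s (N 0 3), s (N 1 2), s (N 2 1), s (N 3 0)], fun v => ?_⟩
  have e := fun i j => h (Pi.single i 1) (Pi.single j 1)
  have e1 := e 0 1
  have e2 := e 0 2
  have e3 := e 0 3
  have e4 := e 1 2
  have e5 := e 1 3
  have e6 := e 2 3
  simp [Bf_apply] at e1 e2 e3 e4 e5 e6
  simp only [Bf_apply, mulVec, dotProduct, Fin.sum_univ_four, cons_val_zero, cons_val_one, cons_val]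
  linear_combination -v 0 ^ 2 * hs (N 3 0) - v 1 ^ 2 * hs (N 2 1) - v 2 ^ 2 * hs (N 1 2) -
    v 3 ^ 2 * hs (N 0 3) + v 0 * v 1 * e1 + v 0 * v 2 * e2 + v 0 * v 3 * e3 + v 1 * v 2 * e4 +
    v 1 * v 3 * e5 + v 2 * v 3 * e6 + (v 0 * v 1 * (N 2 0 - s (N 3 0) * s (N 2 1)) +
    v 0 * v 2 * (N 1 0 - s (N 3 0) * s (N 1 2)) + v 0 * v 3 * (N 0 0 - s (N 3 0) * s (N 0 3)) +
    v 1 * v 2 * (N 1 1 - s (N 2 1) * s (N 1 2)) + v 1 * v 3 * (N 0 1 - s (N 2 1) * s (N 0 3)) +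
    v 2 * v 3 * (N 0 2 - s (N 1 2) * s (N 0 3))) * (two0 (F := F))

/-- not a transvection -/
def NT (N : M4 F) : Prop := ¬ ∃ a, ∀ x, N *ᵥ x = Bf x a • a

theorem SA.rank [Finite F] {N : M4 F} (h : SA N) (hn : NT N) :
    2 ≤ finrank F (LinearMap.range (toLin' N)) := by
  by_contra! H
  obtain ⟨⟨v, hv⟩, hv'⟩ := finrank_le_one_iff.mp (Nat.lt_succ_iff.mp H)
  have : ∀ x, ∃ c : F, c • v = N *ᵥ x := fun x => by
    obtain ⟨c, hc⟩ := hv' ⟨N *ᵥ x, x, rfl⟩
    exact ⟨c, congrArg Subtype.val hc⟩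
  choose c hc using this
  by_cases h0 : v = 0
  · exact hn ⟨0, fun x => by rw [← hc, h0]; simp⟩
  obtain ⟨z, hz⟩ := exists_one h0
  obtain ⟨s, hs⟩ := exists_sq (c z)
  refine hn ⟨s • v, fun x => ?_⟩
  have := h z x
  rw [← hc, ← hc] at this
  simp only [map_smul, hz, smul_eq_mul, mul_one, LinearMap.smul_apply] at this
  rw [← hc, this, map_smul, smul_smul, sym v x, ← hs]
  congr 1; simp; ring

omit [CharP F 2] in
theorem mem_span_of_ker {N : M4 F} (h : 2 ≤ finrank F (LinearMap.range (toLin' N))) {p q r : V4 F}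
    (hi : LinearIndependent F ![p, q]) (hp : N *ᵥ p = 0) (hq : N *ᵥ q = 0) (hr : N *ᵥ r = 0) :
    ∃ α β : F, α • p + β • q = r := by
  have h1 := LinearMap.finrank_range_add_finrank_ker (toLin' N)
  have h2 := finrank_span_eq_card hi
  simp only [finrank_fintype_fun_eq_card, Fintype.card_fin] at h1 h2
  have h3 : Submodule.span F (Set.range ![p, q]) = LinearMap.ker (toLin' N) := by
    refine Submodule.eq_of_le_of_finrank_le (Submodule.span_le.mpr ?_)
      (h2.symm ▸ Nat.le_of_add_le_add_left (h1.le.trans (Nat.add_le_add_right h 2)))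
    rintro _ ⟨i, rfl⟩
    fin_cases i
    exacts [hp, hq]
  have h4 : r ∈ Submodule.span F (Set.range ![p, q]) := by rw [h3]; exact hr
  rw [Matrix.range_cons, Matrix.range_cons, Matrix.range_empty, Set.union_empty, Set.singleton_union] at h4
  exact Submodule.mem_span_pair.mp h4

theorem SA.perp [Finite F] {N : M4 F} (h : SA N) (hn : NT N) (h2 : N * N = 0) {a : V4 F}
    (hNa : N *ᵥ a = 0) (h0 : a ≠ 0) (ha : ∀ v, Bf v a = 0 → Bf v (N *ᵥ v) = 0) {v w : V4 F}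
    (hv : Bf v a = 0) (hw : Bf w a = 0) : Bf w (N *ᵥ v) = 0 := by
  by_contra H
  have H' : Bf v (N *ᵥ w) ≠ 0 := by rwa [h, sym]
  have key : ∀ α β : F, Bf v (α • N *ᵥ v + β • N *ᵥ w) = 0 → Bf w (α • N *ᵥ v + β • N *ᵥ w) = 0 →
      α = 0 ∧ β = 0 := fun α β h1 h2 => by
    simp [ha v hv, ha w hw, H, H'] at h1 h2
    exact ⟨h2, h1⟩
  have hi : LinearIndependent F ![N *ᵥ v, N *ᵥ w] :=
    LinearIndependent.pair_iff.mpr fun α β e => key α β (by simp [e]) (by simp [e])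
  obtain ⟨α, β, e⟩ := mem_span_of_ker (h.rank hn) hi (by simp [h2]) (by simp [h2]) hNa
  obtain ⟨rfl, rfl⟩ := key α β (by rw [e, hv]) (by rw [e, hw])
  exact h0 (by simpa using e.symm)

theorem SA.form [Finite F] {N : M4 F} (h : SA N) (hn : NT N) (h2 : N * N = 0) {a z : V4 F}
    (hNa : N *ᵥ a = 0) (hz : Bf z a = 1) (ha : ∀ v, Bf v a = 0 → Bf v (N *ᵥ v) = 0) (v : V4 F) :
    ∃ c : F, N *ᵥ v = Bf v a • N *ᵥ z + c • a ∧ (Bf v a = 0 → c = Bf (N *ᵥ z) v) := by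
  have h0 : a ≠ 0 := by rintro rfl; simp at hz
  have p : ∀ y, Bf (y - Bf y a • z) a = 0 := fun y => by simp [hz]
  refine ⟨Bf z (N *ᵥ (v - Bf v a • z)), ?_, fun e => by rw [e, zero_smul, sub_zero, h]⟩
  have : N *ᵥ (v - Bf v a • z) = Bf z (N *ᵥ (v - Bf v a • z)) • a := ext_B fun y => by
    have := h.perp hn h2 hNa h0 ha (p v) (p y)
    rw [map_sub, LinearMap.sub_apply, map_smul, LinearMap.smul_apply, sub_eq_zero] at this
    rw [this, map_smul, smul_eq_mul, smul_eq_mul, mul_comm]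
  rw [← this, mulVec_sub, mulVec_smul]; abel

/-- quadratic form with polar form `Bf` -/
def IsQ (Q : V4 F → F) : Prop :=
  (∀ c v, Q (c • v) = c ^ 2 * Q v) ∧ ∀ u v, Q (u + v) = Q u + Q v + Bf u v

theorem exists_Q [Finite F] {a z : V4 F} (hz : Bf z a = 1) : ∃ Q : V4 F → F, IsQ Q ∧ Q a = 0 := by
  refine ⟨fun v => v 0 * v 3 + v 1 * v 2 + (a 0 * a 3 + a 1 * a 2) * Bf z v ^ 2,
    ⟨fun c v => by simp; ring, fun u v => ?_⟩, by simp [hz, CharTwo.add_self_eq_zero]⟩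
  simp only [map_add, Pi.add_apply, Bf_apply u v]
  linear_combination ((a 0 * a 3 + a 1 * a 2) * Bf z u * Bf z v) * (two0 (F := F))

theorem avg {G : Type*} [Group G] [Finite G] (ρ : G →* M4 F)
    (hB : ∀ g u v, Bf (ρ g *ᵥ u) (ρ g *ᵥ v) = Bf u v) (H : Subgroup G) (hH : Odd H.index)
    {Q : V4 F → F} (hQ : IsQ Q) (hi : ∀ h ∈ H, ∀ v, Q (ρ h *ᵥ v) = Q v) :
    ∃ Q' : V4 F → F, IsQ Q' ∧ (∀ g v, Q' (ρ g *ᵥ v) = Q' v) ∧
      ∀ a, (∀ g, Q (ρ g *ᵥ a) = 0) → Q' a = 0 := by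
  classical
  haveI := Fintype.ofFinite (G ⧸ H)
  have key : ∀ (g : G) (c : G ⧸ H) (v : V4 F),
      Q (ρ (g • c).out⁻¹ *ᵥ (ρ g *ᵥ v)) = Q (ρ c.out⁻¹ *ᵥ v) := fun g c v => by
    have : (g • c).out⁻¹ * (g * c.out) ∈ H := by
      rw [← QuotientGroup.eq, QuotientGroup.out_eq', ← smul_eq_mul, MulAction.Quotient.mk_smul_out]
    rw [← hi _ this (ρ c.out⁻¹ *ᵥ v), mulVec_mulVec, mulVec_mulVec, ← map_mul, ← map_mul]
    congr 3; group
  refine ⟨fun v => ∑ c : G ⧸ H, Q (ρ c.out⁻¹ *ᵥ v), ⟨fun c v => ?_, fun u v => ?_⟩, fun g v => ?_,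
    fun a ha => Finset.sum_eq_zero fun c _ => ha _⟩
  · simp [mulVec_smul, hQ.1, Finset.mul_sum]
  · have : ((Fintype.card (G ⧸ H) : ℕ) : F) = 1 := by
      obtain ⟨k, hk⟩ := hH
      rw [← Nat.card_eq_fintype_card, ← Subgroup.index, hk]; simp [two0]
    simp [mulVec_add, hQ.2, hB, Finset.sum_add_distrib, this]
  · exact (Fintype.sum_equiv (MulAction.toPerm g) _ _ fun c => (key g c v).symm).symm

section SL
variable {K : Type*} [Field K]

def xx (k : K) : SL(2, K) := ⟨!![1, k; 0, 1], by simp [det_fin_two]⟩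
def yy (k : K) : SL(2, K) := ⟨!![1, 0; k, 1], by simp [det_fin_two]⟩
def d0 (l : Kˣ) : SL(2, K) := ⟨!![(l : K), 0; 0, (l : K)⁻¹], by simp [det_fin_two]⟩
def cm (g : SL(2, K)) : Matrix (Fin 2) (Fin 2) K := g.1
theorem cm_mul (g h : SL(2, K)) : cm (g * h) = cm g * cm h := rfl
theorem cm_one : cm (1 : SL(2, K)) = 1 := rfl
theorem cm_ext {g h : SL(2, K)} (e : cm g = cm h) : g = h := Subtype.ext e
theorem xx_coe (k : K) : cm (xx k) = !![1, k; 0, 1] := rfl
theorem yy_coe (k : K) : cm (yy k) = !![1, 0; k, 1] := rfl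
theorem d0_coe (l : Kˣ) : cm (d0 l) = !![(l : K), 0; 0, (l : K)⁻¹] := rfl

def dd : Kˣ →* SL(2, K) := MonoidHom.mk' d0 fun a b => cm_ext (by
  simp only [cm_mul, d0_coe]
  ext i j; fin_cases i <;> fin_cases j <;> simp [mul_comm])

theorem dd_coe (l : Kˣ) : cm (dd l) = !![(l : K), 0; 0, (l : K)⁻¹] := rfl

theorem xx_add (k j : K) : xx (k + j) = xx k * xx j := cm_ext (by
  simp only [cm_mul, xx_coe]
  ext i j; fin_cases i <;> fin_cases j <;> simp [add_comm])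

theorem xx_zero : xx (0 : K) = 1 := by ext i j; fin_cases i <;> fin_cases j <;> simp [xx]

theorem dd_xx (l : Kˣ) (k : K) : dd l * xx k = xx (l ^ 2 * k) * dd l := cm_ext (by
  simp only [cm_mul, xx_coe, dd_coe]
  ext i j; fin_cases i <;> fin_cases j <;> simp
  field_simp)

theorem sl_ind {p : SL(2, K) → Prop} (hm : ∀ g h, p g → p h → p (g * h)) (hx : ∀ k, p (xx k))
    (hy : ∀ k, p (yy k)) (g : SL(2, K)) : p g := by
  have H : ∀ g : SL(2, K), cm g 1 0 ≠ 0 → p g := fun g h => by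
    have hd : (cm g).det = 1 := g.det_coe
    rw [det_fin_two] at hd
    have : g = xx ((cm g 0 0 - 1) / cm g 1 0) * yy (cm g 1 0) * xx ((cm g 1 1 - 1) / cm g 1 0) := by
      refine cm_ext ?_
      simp only [cm_mul, xx_coe, yy_coe]
      ext i j; fin_cases i <;> fin_cases j <;> simp [h] <;> field_simp
      · linear_combination -hd
      · ring
    rw [this]; exact hm _ _ (hm _ _ (hx _) (hy _)) (hx _)
  by_cases h : cm g 1 0 = 0
  · have hd : (cm g).det = 1 := g.det_coe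
    rw [det_fin_two, h] at hd
    have e : g = yy (-1) * (yy 1 * g) := by
      refine cm_ext ?_
      simp only [cm_mul, yy_coe]
      ext i j; fin_cases i <;> fin_cases j <;> simp [vecMul, dotProduct, Fin.sum_univ_two]
    rw [e]
    refine hm _ _ (hy _) (H _ ?_)
    simp only [cm_mul, yy_coe, mul_apply, Fin.sum_univ_two]
    simp [h]
    intro h0; simp [h0] at hd
  · exact H g h

variable [CharP K 2]

theorem braid {k : K} (hk : k ≠ 0) : xx k * yy k⁻¹ * xx k = yy k⁻¹ * xx k * yy k⁻¹ := cm_ext (by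
  simp only [cm_mul, xx_coe, yy_coe]
  ext i j; fin_cases i <;> fin_cases j <;> simp [hk, CharTwo.add_self_eq_zero])

theorem nn_mul {k : K} (hk : k ≠ 0) :
    xx k * yy k⁻¹ * xx k * (xx 1 * yy 1 * xx 1) = dd (Units.mk0 k hk) := cm_ext (by
  simp only [cm_mul, xx_coe, yy_coe, dd_coe]
  ext i j; fin_cases i <;> fin_cases j <;> simp [hk, CharTwo.add_self_eq_zero])

theorem yy_eq (k : K) : yy k = xx 1 * yy 1 * xx 1 * xx k * (xx 1 * yy 1 * xx 1) := cm_ext (by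
  simp only [cm_mul, xx_coe, yy_coe]
  ext i j; fin_cases i <;> fin_cases j <;> simp [CharTwo.add_self_eq_zero])

theorem ww : (xx 1 * yy 1 * xx 1 * (xx 1 * yy 1 * xx 1) : SL(2, K)) = 1 := cm_ext (by
  simp only [cm_one, cm_mul, xx_coe, yy_coe]
  ext i j; fin_cases i <;> fin_cases j <;> simp [CharTwo.add_self_eq_zero])

end SL

end Cfsg.Agent.SzL
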