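import Cfsg.Agent.SzL.A
import Cfsg.Agent.H12.Lin
import Cfsg.Agent.H18.MatAlg

/-! Absolutely irreducible `SL₂(2ⁿ)` in `Sp₄` with only `c₂` involutions fixes a quadratic form. -/

set_option autoImplicit false

namespace Cfsg.Agent.SzL

open Matrix Module Cfsg.Lie
open scoped MatrixGroups

variable {F : Type*} [Field F] {K : Type*} [Field K] {ρ : SL(2, K) →* M4 F}

theorem small (hs : Submodule.span F (Set.range ρ) = ⊤) (W : Submodule F (V4 F))
    (hx : ∀ k, ∀ w ∈ W, ρ (xx k) *ᵥ w ∈ W) (hy : ∀ k, ∀ w ∈ W, ρ (yy k) *ᵥ w ∈ W)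
    (h : finrank F W < 4) {w : V4 F} (hw : w ∈ W) : w = 0 := by
  have h1 : ∀ g, ∀ w ∈ W, ρ g *ᵥ w ∈ W := sl_ind (fun g h hg hh w hw => by
    rw [map_mul, ← mulVec_mulVec]; exact hg _ (hh _ hw)) hx hy
  have h2 : ∀ M : M4 F, M *ᵥ w ∈ W := fun M => by
    have : M ∈ Submodule.span F (Set.range ρ) := by rw [hs]; trivial
    induction this using Submodule.span_induction with
    | mem x hx => obtain ⟨g, rfl⟩ := hx; exact h1 g w hw
    | zero => simp
    | add x y _ _ hx hy => rw [add_mulVec]; exact add_mem hx hy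
    | smul c x _ hx => rw [smul_mulVec]; exact W.smul_mem c hx
  by_contra h0
  obtain ⟨z, hz⟩ := exists_one h0
  have : W = ⊤ := eq_top_iff.mpr fun v _ => by
    convert h2 (vecMulVec v ![z 3, z 2, z 1, z 0])
    ext i
    rw [Bf_apply] at hz
    simp [mulVec, dotProduct, Fin.sum_univ_four, vecMulVec_apply]
    linear_combination -v i * hz
  rw [this] at h
  simp at h

theorem scal (hs : Submodule.span F (Set.range ρ) = ⊤) {C : M4 F}
    (hx : ∀ k, Commute (ρ (xx k)) C) (hy : ∀ k, Commute (ρ (yy k)) C) : ∃ c : F, C = c • 1 := by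
  have h1 : ∀ g, Commute (ρ g) C := sl_ind (fun g h hg hh => by
    rw [map_mul]; exact hg.mul_left hh) hx hy
  have h2 : ∀ M : M4 F, Commute M C := fun M => by
    have : M ∈ Submodule.span F (Set.range ρ) := by rw [hs]; trivial
    induction this using Submodule.span_induction with
    | mem x hx => obtain ⟨g, rfl⟩ := hx; exact h1 g
    | zero => simp
    | add x y _ _ hx hy => exact hx.add_left hy
    | smul c x _ hx => exact hx.smul_left c
  obtain ⟨c, hc⟩ := mem_range_scalar_iff_commute_single'.mpr fun i j => h2 (single i j 1)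
  exact ⟨c, by rw [← hc, scalar_apply, smul_one_eq_diagonal]⟩

theorem sum_one {E G : M4 F} (hE : 2 ≤ finrank F (LinearMap.range (toLin' E)))
    (hG : 2 ≤ finrank F (LinearMap.range (toLin' G))) (E2 : E * E = 0) (G2 : G * G = 0)
    (h1 : E * G * E = -E) (h2 : G * E * G = -G) : E * G + G * E = -1 := by
  have hi : LinearMap.range (toLin' E) ⊓ LinearMap.range (toLin' G) = ⊥ := by
    rw [eq_bot_iff]
    rintro v ⟨⟨p, rfl⟩, q, hq⟩
    simp only [toLin'_apply] at hq ⊢
    have : (E * G * E) *ᵥ p = 0 := by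
      rw [← mulVec_mulVec, ← hq, mulVec_mulVec, mul_assoc, G2, mul_zero, zero_mulVec]
    rw [h1, neg_mulVec, neg_eq_zero] at this
    exact this
  have h3 := Submodule.finrank_sup_add_finrank_inf_eq (LinearMap.range (toLin' E))
    (LinearMap.range (toLin' G))
  rw [hi, finrank_bot, add_zero] at h3
  have h4 : LinearMap.range (toLin' E) ⊔ LinearMap.range (toLin' G) = ⊤ :=
    Submodule.eq_top_of_finrank_eq (le_antisymm (Submodule.finrank_le _) (by
      rw [h3, finrank_fintype_fun_eq_card, Fintype.card_fin]; exact Nat.add_le_add hE hG))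
  refine toLin'.injective (LinearMap.ext fun v => ?_)
  obtain ⟨_, ⟨p, rfl⟩, _, ⟨q, rfl⟩, rfl⟩ := Submodule.mem_sup.mp (h4 ▸ Submodule.mem_top (x := v))
  simp only [toLin'_apply, mulVec_add, mulVec_mulVec, add_mul, h1, h2, mul_assoc G E E, mul_assoc E G G,
    E2, G2]
  simp

variable [CharP F 2] [CharP K 2]

theorem negM (M : M4 F) : -M = M := by ext i j; simp [CharTwo.neg_eq]

theorem quad (hs : Submodule.span F (Set.range ρ) = ⊤) {e : K → M4 F} (he : ∀ k, ρ (xx k) = 1 + e k)
    (hr : ∀ k, k ≠ 0 → 2 ≤ finrank F (LinearMap.range (toLin' (e k))))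
    (ee : ∀ k j, e k * e j = 0) : False := by
  set w := ρ (xx 1 * yy 1 * xx 1) with hw
  have w2 : w * w = 1 := by rw [← map_mul, ww, map_one]
  obtain ⟨f, hf⟩ : ∃ f : K → M4 F, ∀ k, f k = w * e k * w := ⟨_, fun _ => rfl⟩
  have hy : ∀ k, ρ (yy k) = 1 + f k := fun k => by
    rw [yy_eq, map_mul, map_mul, he k, hf, mul_add, add_mul, mul_one, w2]
  have ff : ∀ k j, f k * f j = 0 := fun k j => by
    rw [hf, hf, mul_assoc, mul_assoc w (e j), ← mul_assoc w w, w2, one_mul, mul_assoc w, ← mul_assoc (e k), ee]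
    simp
  have hr' : ∀ k, k ≠ 0 → 2 ≤ finrank F (LinearMap.range (toLin' (f k))) := fun k hk => by
    have hu : IsUnit w.det := isUnit_det_of_left_inverse w2
    have : 2 ≤ (e k).rank := hr k hk
    change 2 ≤ (f k).rank
    rwa [hf, rank_mul_eq_left_of_isUnit_det _ _ hu, rank_mul_eq_right_of_isUnit_det _ _ hu]
  have e0 : e 0 = 0 := by simpa [xx_zero] using (he 0).symm
  have main : ∀ k, k ≠ 0 → e k * f k⁻¹ + f k⁻¹ * e k = 1 ∧ e k * f k⁻¹ * e k = e k ∧
      ρ (xx k * yy k⁻¹ * xx k) = e k + f k⁻¹ := fun k hk => by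
    have b := congrArg ρ (braid hk)
    simp only [map_mul, he, hy] at b ⊢
    have b' : e k + e k * f k⁻¹ * e k = f k⁻¹ + f k⁻¹ * e k * f k⁻¹ := by
      simp only [mul_add, add_mul, one_mul, mul_one, ee, ff] at b
      rw [← sub_eq_zero] at b ⊢
      rw [← b]; abel
    have z : e k + e k * f k⁻¹ * e k = 0 := by
      refine toLin'.injective (LinearMap.ext fun v => ?_)
      rw [map_zero, LinearMap.zero_apply, toLin'_apply]
      refine small hs (F ∙ ((e k + e k * f k⁻¹ * e k) *ᵥ v)) (fun j u hu => ?_) (fun j u hu => ?_)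
        ((finrank_span_le_card _).trans_lt (by simp)) (Submodule.mem_span_singleton_self _)
      all_goals obtain ⟨c, rfl⟩ := Submodule.mem_span_singleton.mp hu
      · rw [he, add_mulVec 1, one_mulVec, mulVec_smul, mulVec_mulVec, mul_add, mul_assoc (e k),
          ← mul_assoc (e j), ee]
        simpa [mul_assoc] using hu
      · rw [hy, add_mulVec 1, one_mulVec, mulVec_smul, mulVec_mulVec, b', mul_add, mul_assoc (f k⁻¹),
          ← mul_assoc (f j), ff, ← mul_assoc, ← b']
        simpa using hu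
    have h1 := eq_neg_of_add_eq_zero_right z
    have h2 := eq_neg_of_add_eq_zero_right (b' ▸ z)
    have h3 := sum_one (hr k hk) (hr' _ (inv_ne_zero hk)) (ee _ _) (ff _ _) h1 h2
    refine ⟨h3.trans (negM _), h1.trans (negM _), ?_⟩
    simp only [mul_add, add_mul, one_mul, mul_one, ee, h1]
    rw [eq_sub_of_add_eq h3]; abel
  obtain ⟨m1, m2, m3⟩ := main 1 one_ne_zero
  rw [inv_one] at m1 m2 m3
  have efe : ∀ k, e k * f 1 * e 1 = e k := fun k => by
    have := congrArg (e k * ·) m1
    simpa [mul_add, ← mul_assoc, ee] using this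
  have efe' : ∀ k, e 1 * f 1 * e k = e k := fun k => by
    have := congrArg (· * e k) m1
    simpa [add_mul, mul_assoc (f 1), ee] using this
  have hd : ∀ k (hk : k ≠ 0), ρ (dd (Units.mk0 k hk)) = e k * f 1 + f k⁻¹ * e 1 := fun k hk => by
    rw [← nn_mul hk, map_mul, (main k hk).2.2, m3]
    simp [mul_add, add_mul, ee, ff, add_comm]
  have cm : ∀ k j, e k * f 1 * e j = e j * f 1 * e k := fun k j => by
    by_cases hk : k = 0
    · simp [hk, e0]
    by_cases hj : j = 0
    · simp [hj, e0]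
    have := congrArg (fun u => ρ (dd u) * e 1) (mul_comm (Units.mk0 k hk) (Units.mk0 j hj))
    simp only [map_mul, hd, mul_assoc, add_mul, ee, mul_zero, add_zero] at this
    simp only [← mul_assoc (e j) (f 1), ← mul_assoc (e k) (f 1), efe, ee, mul_zero, add_zero] at this
    exact this
  have hc : ∀ k, ∃ c : F, e k = c • e 1 := fun k => by
    have c1 : ∀ j, Commute (e j) (e k * f 1 + f 1 * e k) := fun j => by
      simp only [Commute, SemiconjBy, mul_add, add_mul, ← mul_assoc, ee, zero_mul, zero_add]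
      rw [mul_assoc (f 1), ee, mul_zero, add_zero, cm]
    have c2 : Commute (f 1) (e k * f 1 + f 1 * e k) := by
      simp only [Commute, SemiconjBy, mul_add, add_mul, ← mul_assoc, ff, zero_mul, add_zero]
      rw [mul_assoc (e k), ff, mul_zero, zero_add]
    have c3 : Commute w (e k * f 1 + f 1 * e k) := by rw [hw, m3]; exact (c1 1).add_left c2
    obtain ⟨c, hc⟩ := scal hs (fun j => by rw [he]; exact (Commute.one_left _).add_left (c1 j))
      (fun j => by rw [hy, hf]; exact (Commute.one_left _).add_left ((c3.mul_left (c1 j)).mul_left c3))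
    refine ⟨c, ?_⟩
    have := congrArg (· * e 1) hc
    simpa [add_mul, mul_assoc (f 1), ee, efe] using this
  have : e 1 = 0 := by
    classical
    refine toLin'.injective (LinearMap.ext fun v => ?_)
    rw [map_zero, LinearMap.zero_apply, toLin'_apply]
    have m := Submodule.subset_span (R := F) (s := {e 1 *ᵥ v, (f 1 * e 1) *ᵥ v})
    have i1 : ∀ u ∈ Submodule.span F {e 1 *ᵥ v, (f 1 * e 1) *ᵥ v},
        e 1 *ᵥ u ∈ Submodule.span F {e 1 *ᵥ v, (f 1 * e 1) *ᵥ v} ∧
        f 1 *ᵥ u ∈ Submodule.span F {e 1 *ᵥ v, (f 1 * e 1) *ᵥ v} := fun u hu => by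
      obtain ⟨α, β, rfl⟩ := Submodule.mem_span_pair.mp hu
      simp only [mulVec_add, mulVec_smul, mulVec_mulVec, ← mul_assoc, ee, ff, m2, zero_mul, zero_mulVec,
        smul_zero, zero_add, add_zero]
      exact ⟨Submodule.smul_mem _ _ (m (by simp)), Submodule.smul_mem _ _ (m (by simp))⟩
    refine small hs (Submodule.span F {e 1 *ᵥ v, (f 1 * e 1) *ᵥ v}) (fun j u hu => ?_) (fun j u hu => ?_)
      ((finrank_span_le_card _).trans_lt ?_) (m (by simp))
    · obtain ⟨c, hc⟩ := hc j
      rw [he, hc, add_mulVec, one_mulVec, smul_mulVec]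
      exact add_mem hu (Submodule.smul_mem _ _ (i1 u hu).1)
    · obtain ⟨c, hc⟩ := hc j
      rw [hy, hf j, hc, mul_smul_comm, smul_mul_assoc, ← hf, add_mulVec, one_mulVec, smul_mulVec]
      exact add_mem hu (Submodule.smul_mem _ _ (i1 u hu).2)
    · rw [Set.toFinset_insert, Set.toFinset_singleton]
      exact Finset.card_le_two.trans_lt (by norm_num)
  have h := hr 1 one_ne_zero
  rw [this, map_zero, LinearMap.range_zero, finrank_bot] at h
  omega

end Cfsg.Agent.SzL
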