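import Cfsg.Agent.SzL.B

/-! Absolutely irreducible `PSL₂(2ⁿ)` in `Sp₄` with only `c₂` involutions fixes a quadratic form. -/

set_option autoImplicit false

namespace Cfsg.Agent.SzL

open Matrix Module Cfsg.Lie
open scoped MatrixGroups

variable {F : Type*} [Field F] {K : Type*} [Field K] {ρ : SL(2, K) →* M4 F}
  [CharP F 2] [CharP K 2] [Finite F] [Finite K]

theorem core (hB : ∀ g u v, Bf (ρ g *ᵥ u) (ρ g *ᵥ v) = Bf u v)
    (hs : Submodule.span F (Set.range ρ) = ⊤)
    (hc : ∀ k, k ≠ 0 → (∃ x, Bf x (ρ (xx k) *ᵥ x) ≠ 0) ∧ NT (ρ (xx k) - 1)) :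
    ∃ Q : V4 F → F, IsQ Q ∧ ∀ g v, Q (ρ g *ᵥ v) = Q v := by
  obtain ⟨e, he⟩ : ∃ e : K → M4 F, ∀ k, ρ (xx k) = 1 + e k := ⟨fun k => ρ (xx k) - 1, fun k => by simp⟩
  have e0 : e 0 = 0 := by simpa [xx_zero] using (he 0).symm
  have eadd : ∀ k j, e (k + j) = e k + e j + e k * e j := fun k j => by
    have := congrArg ρ (xx_add k j)
    rw [map_mul, he, he, he] at this
    rw [← add_right_inj 1, this]; noncomm_ring
  have xe : ∀ k v, ρ (xx k) *ᵥ v = v + e k *ᵥ v := fun k v => by rw [he, add_mulVec, one_mulVec]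
  have e2 : ∀ k, e k * e k = 0 := fun k => by
    have := eadd k k
    rw [CharTwo.add_self_eq_zero, e0, add_eq_zero_iff_eq_neg.mpr (negM (e k)).symm, zero_add] at this
    exact this.symm
  have x2 : ∀ k v, ρ (xx k) *ᵥ (ρ (xx k) *ᵥ v) = v := fun k v => by
    rw [mulVec_mulVec, ← map_mul, ← xx_add, CharTwo.add_self_eq_zero, xx_zero, map_one, one_mulVec]
  have sa : ∀ k, SA (e k) := fun k u v => by
    have := hB (xx k) u (ρ (xx k) *ᵥ v)
    rw [x2, xe, xe] at this
    simpa using this.symm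
  have nt : ∀ k, k ≠ 0 → NT (e k) := fun k hk => by simpa [he] using (hc k hk).2
  choose a ha using fun k => (sa k).exists_a
  have a0 : ∀ k, k ≠ 0 → a k ≠ 0 := fun k hk h => by
    obtain ⟨x, hx⟩ := (hc k hk).1
    rw [xe, map_add, slf, ha, h] at hx
    simp at hx
  have cj : ∀ g k j, g * xx k = xx j * g → ρ g *ᵥ a k = a j := fun g k j h => ext_B fun y => sq_inj (by
    obtain ⟨y, rfl⟩ : ∃ x, y = ρ g *ᵥ x := ⟨ρ g⁻¹ *ᵥ y, by rw [mulVec_mulVec, ← map_mul]; simp⟩
    have := congrArg ρ h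
    rw [map_mul, map_mul, he, he, mul_add, add_mul, mul_one, one_mul, add_right_inj] at this
    rw [hB, ← ha, ← ha, mulVec_mulVec, ← this, ← mulVec_mulVec, hB])
  have ea : ∀ k j, e k *ᵥ a j = 0 := fun k j => by
    have := cj (xx k) j j (by rw [← xx_add, ← xx_add, add_comm])
    rwa [xe, add_eq_left] at this
  by_contra hQ
  refine quad hs he (fun k hk => (sa k).rank (nt k hk)) ?_
  by_cases hi : ∃ k, LinearIndependent F ![a 1, a k]
  · obtain ⟨k, hi⟩ := hi
    intro i j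
    by_cases hj : j = 0
    · simp [hj, e0]
    refine toLin'.injective (LinearMap.ext fun v => ?_)
    obtain ⟨α, β, h⟩ := mem_span_of_ker ((sa j).rank (nt j hj)) hi (ea _ _) (ea _ _)
      (r := e j *ᵥ v) (by simp [e2])
    rw [toLin'_apply, ← mulVec_mulVec, ← h]
    simp [mulVec_add, mulVec_smul, ea]
  have ha1 := a0 1 one_ne_zero
  have hα : ∀ k, ∃ c : F, c • a 1 = a k := fun k => by
    by_contra! H
    exact hi ⟨k, (LinearIndependent.pair_iff' ha1).mpr H⟩
  choose α hα using hα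
  obtain ⟨z, hz⟩ := exists_one ha1
  have form : ∀ k v, ∃ c : F, e k *ᵥ v = Bf v (a 1) • e k *ᵥ z + c • a 1 ∧
      (Bf v (a 1) = 0 → c = Bf (e k *ᵥ z) v) := fun k v => by
    by_cases hk : k = 0
    · exact ⟨0, by simp [hk, e0], by simp [hk, e0]⟩
    exact (sa k).form (nt k hk) (e2 k) (ea _ _) hz (fun v hv => by rw [ha, ← hα]; simp [hv]) v
  have pa : ∀ k v, Bf (e k *ᵥ v) (a 1) = 0 := fun k v => by rw [← sa, ea, map_zero]
  obtain ⟨b, hb⟩ : ∃ b : K → K → F, ∀ k j, b k j = Bf (e k *ᵥ z) (e j *ᵥ z) := ⟨_, fun _ _ => rfl⟩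
  have hee : ∀ k j v, (e k * e j) *ᵥ v = (Bf v (a 1) * b k j) • a 1 := fun k j v => by
    obtain ⟨c, h1, -⟩ := form j v
    obtain ⟨c', h2, h3⟩ := form k (e j *ᵥ z)
    rw [← mulVec_mulVec, h1, mulVec_add, mulVec_smul, mulVec_smul, ea, h2, h3 (pa _ _), pa, hb]
    simp [smul_smul]
  suffices H : ∀ k j, b k j = 0 from fun k j => toLin'.injective (LinearMap.ext fun v => by
    simp [hee, H])
  obtain ⟨Q1, q1, q1a⟩ := exists_Q hz
  haveI := Fintype.ofFinite K
  have hev : Even (Fintype.card K) := by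
    have := FiniteField.even_card_of_char_two (F := K) (ringChar.eq K 2)
    exact Nat.even_iff.mpr this
  have da : ∀ l : Kˣ, ρ (dd l) *ᵥ a 1 = α (l ^ 2) • a 1 := fun l => by
    rw [hα, cj _ 1 _ (dd_xx l 1), mul_one]
  obtain ⟨Q, q, qd, qa⟩ := avg (ρ.comp dd) (fun g => hB _) ⊥ (by
      rw [Subgroup.index_bot, Nat.card_units, Nat.card_eq_fintype_card]
      exact Nat.Even.sub_odd Fintype.card_pos hev odd_one) q1
    (fun h hh v => by rw [Subgroup.mem_bot.mp hh, map_one, one_mulVec])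
  have qa := qa (a 1) fun l => by rw [MonoidHom.comp_apply, da, q1.1, q1a, mul_zero]
  simp only [MonoidHom.comp_apply] at qd
  obtain ⟨f, hf⟩ : ∃ f : K → F, ∀ k, f k = Q (e k *ᵥ z) + α k ^ 2 := ⟨_, fun _ => rfl⟩
  have qx : ∀ k v, Q (ρ (xx k) *ᵥ v) = Q v + f k * Bf v (a 1) ^ 2 := fun k v => by
    obtain ⟨c, h1, -⟩ := form k v
    rw [xe, q.2, ha, ← hα, h1, q.2, q.1, q.1, qa, hf]
    simp [pa]; ring
  have fadd : ∀ k j, f (k + j) = f k + f j := fun k j => by
    have := qx (k + j) z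
    rw [xx_add, map_mul, ← mulVec_mulVec, qx, qx, xe, map_add, LinearMap.add_apply, pa, hz] at this
    linear_combination -this
  have de : ∀ (l : Kˣ) k, ρ (dd l) * e k = e (l ^ 2 * k) * ρ (dd l) := fun l k => by
    have := congrArg ρ (dd_xx l k)
    rwa [map_mul, map_mul, he, he, mul_add, add_mul, mul_one, one_mul, add_right_inj] at this
  have sc : ∀ n : K, n ≠ 0 → ∃ c : F, (∀ k, f (n * k) = c * f k) ∧ ∀ k j, b (n * k) (n * j) = c * b k j :=
    fun n hn => by
    obtain ⟨s, rfl⟩ := exists_sq n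
    obtain ⟨l, rfl⟩ : ∃ l : Kˣ, l = s := ⟨Units.mk0 s (fun h => hn (by simp [h])), rfl⟩
    obtain ⟨y, hy⟩ : ∃ y, z = ρ (dd l) *ᵥ y := ⟨ρ (dd l)⁻¹ *ᵥ z, by rw [mulVec_mulVec, ← map_mul]; simp⟩
    have hya : Bf y (a 1) = α (l ^ 2) := by rw [← hB (dd l), ← hy, da]; simp [hz]
    refine ⟨α (l ^ 2) ^ 2, fun k => ?_, fun k j => ?_⟩
    · have := qx (l ^ 2 * k) z
      rw [hz, hy, mulVec_mulVec, ← map_mul, ← dd_xx, map_mul, ← mulVec_mulVec, qd, qd, qx, hya] at this
      linear_combination -this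
    · have := congrArg (Bf z) (hee (l ^ 2 * k) (l ^ 2 * j) z)
      rw [hz, map_smul, hz] at this
      conv_lhs at this => rw [hy, mulVec_mulVec, mul_assoc, ← de, ← mul_assoc, ← de, mul_assoc,
        ← mulVec_mulVec, hB, hee, map_smul, hya]
      simp only [smul_eq_mul] at this
      linear_combination -this
  have f1 : f 1 ≠ 0 := fun h => hQ (by
    have f0 : ∀ k, f k = 0 := fun k => by
      by_cases hk : k = 0
      · simpa [hk] using fadd 0 0
      obtain ⟨c, h1, -⟩ := sc k hk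
      simpa [h] using h1 1
    let X : Multiplicative K →* SL(2, K) := MonoidHom.mk' (fun k => xx k.toAdd) fun k j => xx_add _ _
    have hX : Function.Injective X := fun k j h => congrArg (fun g => cm g 0 1) h
    obtain ⟨Q', h1, h2, -⟩ := avg ρ hB X.range (by
      have h1 := X.range.card_mul_index
      rw [H12.card_SL2 rfl, ← Nat.card_congr (MonoidHom.ofInjective hX).toEquiv, Nat.card_congr Multiplicative.toAdd,
        Nat.card_eq_fintype_card, mul_right_inj' Fintype.card_ne_zero] at h1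
      rw [h1]
      exact Nat.Even.sub_odd (pow_pos Fintype.card_pos 2) (hev.pow_of_ne_zero two_ne_zero) odd_one)
      q (by rintro _ ⟨k, rfl⟩ v; exact (qx _ v).trans (by simp [f0]))
    exact ⟨Q', h1, h2⟩)
  have bs : ∀ n k j, b (n * k) (n * j) * f 1 = f n * b k j := fun n k j => by
    by_cases hn : n = 0
    · have : f 0 = 0 := by simpa using fadd 0 0
      simp [hn, hb, e0, this]
    obtain ⟨c, h1, h2⟩ := sc n hn
    have := h1 1
    rw [mul_one] at this
    rw [h2, this]; ring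
  have bsym : ∀ k j, b k j = b j k := fun k j => by rw [hb, hb, sym]
  have badd : ∀ k j i, b (k + j) i = b k i + b j i := fun k j i => by
    rw [hb, hb, hb, eadd, add_mulVec, add_mulVec, hee]
    simp [sym (a 1), pa]
  have bm : ∀ n k j, b (n * k) j = b k (n * j) := fun n k j => by
    have h1 := bs (n + 1) k j
    rw [add_mul, add_mul, one_mul, one_mul, badd, bsym, badd, bsym k, badd, fadd, bsym j (n * k),
      bsym j k, bsym (n * j) k, bsym (n * j)] at h1
    refine mul_right_cancel₀ f1 ?_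
    linear_combination h1 - bs n k j - b k (n * j) * f 1 * (two0 (F := F))
  intro k j
  obtain ⟨s, hs⟩ := exists_sq (k * j)
  rw [← mul_one k, bm, ← hs, sq, ← bm, mul_one, hb, slf]

end Cfsg.Agent.SzL

namespace Cfsg.Agent.H18.S4
open Matrix SzL
open scoped MatrixGroups

theorem l2 {F : Type*} [Field F] [Finite F] [CharP F 2] {P : Subgroup (GL (Fin 4) F)}
    {K : Type*} [Field K] [Finite K] [CharP K 2] (hP : P ≤ Lie.Sp4 F)
    (e : Nonempty (P ≃* PSL(2, K))) (hs : H18.spanAlg F P = ⊤)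
    (hc : ∀ t ∈ P, orderOf t = 2 → (∃ x, Lie.altForm4 x (t.1 *ᵥ x) ≠ 0) ∧
      ¬ ∃ a, ∀ x, t.1 *ᵥ x = x + Lie.altForm4 x a • a) :
    ∃ Q, Geo.IsNondegenerateQuadraticForm Q ∧ Geo.FixesQuadForm (Geo.matrixSet P) Q := by
  obtain ⟨e⟩ := e
  let π : SL(2, K) →* P := e.symm.toMonoidHom.comp (QuotientGroup.mk' _)
  have hπ : Function.Surjective π := e.symm.surjective.comp (QuotientGroup.mk'_surjective _)
  let ρ : SL(2, K) →* M4 F := (Units.coeHom _).comp (P.subtype.comp π)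
  have hr : Set.range ρ = Geo.matrixSet P := by
    ext M
    constructor
    · rintro ⟨g, rfl⟩; exact ⟨_, (π g).2, rfl⟩
    · rintro ⟨g, hg, rfl⟩
      obtain ⟨x, hx⟩ := hπ ⟨g, hg⟩
      exact ⟨x, congrArg (fun y : P => y.1.1) hx⟩
  obtain ⟨Q, q, h⟩ := core (ρ := ρ) (fun g => hP (π g).2)
    (by rw [hr]; exact congrArg Subalgebra.toSubmodule hs) fun k hk => by
      have := hc _ (π (xx k)).2 (by
        rw [Subgroup.orderOf_coe]
        refine orderOf_eq_prime (by
          rw [sq, ← map_mul, ← xx_add, CharTwo.add_self_eq_zero, xx_zero, map_one]) fun h => ?_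
        have h1 : (QuotientGroup.mk' _ (xx k) : PSL(2, K)) = 1 := e.symm.map_eq_one_iff.mp h
        obtain ⟨r, -, h2⟩ := Matrix.SpecialLinearGroup.mem_center_iff.mp ((QuotientGroup.eq_one_iff (xx k)).mp h1)
        have h3 : scalar (Fin 2) r 0 1 = k := congrArg (fun M : Matrix (Fin 2) (Fin 2) K => M 0 1) h2
        exact hk (by simpa using h3.symm))
      refine ⟨this.1, fun ⟨a, ha⟩ => this.2 ⟨a, fun x => ?_⟩⟩
      have h := ha x
      rw [sub_mulVec, one_mulVec] at h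
      exact eq_add_of_sub_eq' h
  have hp : QuadraticMap.polar Q = fun u v => Bf u v := by
    ext u v; rw [QuadraticMap.polar, q.2]; ring
  refine ⟨Q, ⟨q.1, ?_, ?_⟩, fun s hs v => ?_⟩
  · rw [hp]; constructor <;> simp
  · rw [hp]
    intro v hv
    obtain ⟨z, hz⟩ := exists_one hv
    exact ⟨⟨z, by simp [hz]⟩, z, by simp [sym v, hz]⟩
  · obtain ⟨g, rfl⟩ := hr ▸ hs
    exact h g v

end Cfsg.Agent.H18.S4
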